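/-
The centralizer, in the automorphism group of the explicit model of type `M(22)`, of the product of two commuting
transpositions: its action on the transvections of `PSU₄(2)`.
-/
import Mathlib
import Cfsg.Agent.Lib.Fischer.M22.Pair.FStar
import Cfsg.Agent.Lib.Fischer.M22.Rows.Out.Cls1

set_option autoImplicit false
set_option linter.unusedSectionVars false
set_option linter.unusedSimpArgs false
set_option linter.unusedVariables false
set_option maxRecDepth 100000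

namespace Cfsg.Agent.Lib.Fischer.M22.AutPair

open Cfsg Cfsg.Agent.Lib.Fischer.Basic Cfsg.Agent.Lib.Fischer.Local
open Cfsg.Agent.Lib.Fischer.M22.Model Cfsg.Agent.Lib.Fischer.M22.Bridge
open Cfsg.Agent.Lib.Fischer.M22.Explicit
open Cfsg.Agent.Lib.Fischer.M22.Pair (AA cl cl_mem AA_iff comm_a0_b0 C0 K0 mem_C0 mem_K0 sep comm_of_cl cl_surj U4.D4 U4.PS U4.tt4 U4.closure4 U4.center4
  ext_D4 autC autC_cl autC_surj cl_tp conj_comm conj_comm_iff)

/-! ### The action on the labels -/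

theorem exists_pA (ψ : MulAut G0) (p : Fin NN) : ∃ q, ψ (t p) = t q :=
  mem_D0.1 ((Rows.Out.hD_of ψ _).1 (t_mem p))

/-- The action of an automorphism on the labels. -/
noncomputable def pA (ψ : MulAut G0) (p : Fin NN) : Fin NN := (exists_pA ψ p).choose

theorem pA_spec (ψ : MulAut G0) (p : Fin NN) : ψ (t p) = t (pA ψ p) := (exists_pA ψ p).choose_spec

theorem pA_mul (a b : MulAut G0) (p : Fin NN) : pA (a * b) p = pA a (pA b p) := by
  apply t_inj
  rw [← pA_spec, ← pA_spec, ← pA_spec]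
  rfl

theorem pA_one (p : Fin NN) : pA 1 p = p := by
  apply t_inj
  rw [← pA_spec]
  rfl

theorem pA_conj (c : G0) (p : Fin NN) : pA (MulAut.conj c) p = φ c p := by
  apply t_inj
  rw [← pA_spec, MulAut.conj_apply, t_conj]

theorem pA_inv_self (ψ : MulAut G0) (p : Fin NN) : pA ψ (pA ψ⁻¹ p) = p := by
  rw [← pA_mul, mul_inv_cancel, pA_one]

/-! ### The centralizer -/

/-- The inner automorphism of the product. -/
noncomputable def J : MulAut G0 := MulAut.conj (a0 * t lb6)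

/-- The centralizer of the product in the automorphism group. -/
noncomputable def CA : Subgroup (MulAut G0) := Subgroup.centralizer ({J} : Set (MulAut G0))

theorem mem_CA {ψ : MulAut G0} : ψ ∈ CA ↔ ψ (a0 * t lb6) = a0 * t lb6 := by
  rw [CA, Subgroup.mem_centralizer_singleton_iff]
  have h := Rows.Out.aut_conj ψ (a0 * t lb6)
  unfold J
  constructor
  · intro h1
    apply Rows.Out.conj_inj
    have h2 : MulAut.conj (ψ (a0 * t lb6)) * ψ = MulAut.conj (a0 * t lb6) * ψ := by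
      rw [← h, h1]
    exact mul_right_cancel h2
  · intro h1
    rw [h, h1]

theorem conj_mem_CA {c : G0} (hc : c ∈ C0) : MulAut.conj c ∈ CA := by
  rw [mem_CA, MulAut.conj_apply]
  have hc' := mem_C0.1 hc
  rw [hc'.eq]
  group

theorem mem_C0_of_conj {c : G0} (hc : MulAut.conj c ∈ CA) : c ∈ C0 := by
  rw [mem_CA, MulAut.conj_apply] at hc
  rw [mem_C0]
  show c * (a0 * t lb6) = (a0 * t lb6) * c
  nth_rewrite 2 [← hc]
  group

theorem CA_dich {ψ : MulAut G0} (hψ : ψ ∈ CA) :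
    (ψ a0 = a0 ∧ ψ (t lb6) = t lb6) ∨ (ψ a0 = t lb6 ∧ ψ (t lb6) = a0) := by
  have e : ψ a0 * ψ (t lb6) = a0 * tn 6 := by
    rw [tn_6', ← map_mul]
    exact mem_CA.1 hψ
  have hc : Commute (ψ a0) (ψ (t lb6)) := comm_a0_b0.map ψ
  have := fp2_rep ((Rows.Out.hD_of ψ _).1 a0_mem) ((Rows.Out.hD_of ψ _).1 (t_mem lb6)) hc e
  rwa [tn_6'] at this

theorem AA_conjA {ψ : MulAut G0} (hψ : ψ ∈ CA) {p : Fin NN} (h : AA p) : AA (pA ψ p) := by
  obtain ⟨h1, h2, h3, h4⟩ := (AA_iff p).1 h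
  rw [AA_iff, ← pA_spec]
  have inj : ∀ {x y : G0}, ψ x = ψ y → x = y := fun {x y} e => ψ.injective e
  rcases CA_dich hψ with ⟨e1, e2⟩ | ⟨e1, e2⟩
  · refine ⟨fun k => h1 (inj (by rw [k, e1])), fun k => h2 (inj (by rw [k, e2])), ?_, ?_⟩
    · rw [← e1]; exact h3.map ψ
    · rw [← e2]; exact h4.map ψ
  · refine ⟨fun k => h2 (inj (by rw [k, e2])), fun k => h1 (inj (by rw [k, e1])), ?_, ?_⟩
    · rw [← e2]; exact h4.map ψ
    · rw [← e1]; exact h3.map ψ

theorem comm_pA {ψ : MulAut G0} {p q : Fin NN} : Commute (t (pA ψ p)) (t (pA ψ q)) ↔ Commute (t p) (t q) := by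
  rw [← pA_spec, ← pA_spec]
  constructor
  · intro h
    have := h.map ψ⁻¹
    simpa using this
  · intro h
    exact h.map ψ

theorem cl_congrA {ψ : MulAut G0} (hψ : ψ ∈ CA) {p q : Fin NN} (hp : AA p) (hq : AA q) (h : cl p = cl q) :
    cl (pA ψ p) = cl (pA ψ q) := by
  apply sep (AA_conjA hψ hp) (AA_conjA hψ hq)
  intro r hr
  have hr' : AA (pA ψ⁻¹ r) := AA_conjA (inv_mem hψ) hr
  have e := pA_inv_self ψ r
  rw [← e, comm_pA, comm_pA]
  exact comm_of_cl hp hq hr' h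

/-! ### The action on the transvections -/

/-- The action on the transvections. -/
noncomputable def Phi (c : ↥CA) (y : ↥U4.D4) : ↥U4.D4 :=
  ⟨cl (pA c.1 (Pair.rp y)), cl_mem (AA_conjA c.2 (Pair.rp_AA y))⟩

theorem Phi_val (c : ↥CA) {p : Fin NN} (hp : AA p) {y : ↥U4.D4} (hy : y.1 = cl p) : (Phi c y).1 = cl (pA c.1 p) :=
  cl_congrA c.2 (Pair.rp_AA y) hp ((Pair.cl_rp y).trans hy)

theorem Phi_one (y : ↥U4.D4) : Phi 1 y = y := by
  apply Subtype.ext
  show cl (pA 1 (Pair.rp y)) = y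
  rw [pA_one]
  exact Pair.cl_rp y

theorem Phi_mul (a b : ↥CA) (y : ↥U4.D4) : Phi (a * b) y = Phi a (Phi b y) := by
  apply Subtype.ext
  rw [Phi_val a (AA_conjA b.2 (Pair.rp_AA y)) (y := Phi b y) rfl]
  show cl (pA (a.1 * b.1) (Pair.rp y)) = _
  rw [pA_mul]

/-- The action as a permutation. -/
noncomputable def PhiP : ↥CA →* Equiv.Perm ↥U4.D4 where
  toFun c := ⟨Phi c, Phi c⁻¹, fun y => by rw [← Phi_mul, inv_mul_cancel, Phi_one], fun y => by
    rw [← Phi_mul, mul_inv_cancel, Phi_one]⟩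
  map_one' := by
    ext y
    show (Phi 1 y).1 = y.1
    rw [Phi_one]
  map_mul' a b := by
    ext y
    show (Phi (a * b) y).1 = (Phi a (Phi b y)).1
    rw [Phi_mul]

theorem PhiP_val (c : ↥CA) {p : Fin NN} (hp : AA p) {y : ↥U4.D4} (hy : y.1 = cl p) : (PhiP c y).1 = cl (pA c.1 p) :=
  Phi_val c hp hy

theorem pA_conj_apply (ψ : MulAut G0) (p q : Fin NN) : pA ψ (φ (t p) q) = φ (t (pA ψ p)) (pA ψ q) := by
  apply t_inj
  rw [← t_conj (t (pA ψ p)) (pA ψ q), ← pA_spec ψ (φ (t p) q), ← t_conj (t p) q, map_mul, map_mul, map_inv, pA_spec,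
    pA_spec]

theorem Phi_tp (c : ↥CA) (y z : ↥U4.D4) : PhiP c (Cfsg.Agent.Lib.Fischer.M22.Compare.tpD U4.tt4 y z) =
    Cfsg.Agent.Lib.Fischer.M22.Compare.tpD U4.tt4 (PhiP c y) (PhiP c z) := by
  apply Subtype.ext
  have hp := Pair.rp_AA y
  have hq := Pair.rp_AA z
  have hAA : AA (φ (t (Pair.rp y)) (Pair.rp z)) := Pair.AA_conj (Pair.t_mem_C0 hp) hq
  have e0 : (Cfsg.Agent.Lib.Fischer.M22.Compare.tpD U4.tt4 y z).1 = cl (φ (t (Pair.rp y)) (Pair.rp z)) := by
    rw [cl_tp hp hq, Pair.cl_rp, Pair.cl_rp]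
    rfl
  rw [PhiP_val c hAA e0, pA_conj_apply, cl_tp (AA_conjA c.2 hp) (AA_conjA c.2 hq)]
  show _ = (PhiP c y).1 * (PhiP c z).1 * (PhiP c y).1
  rw [PhiP_val c hp (Pair.cl_rp y).symm, PhiP_val c hq (Pair.cl_rp z).symm]

theorem exists_aut (c : ↥CA) : ∃ e : U4.PS ≃* U4.PS, ∀ y : ↥U4.D4, e y.1 = (PhiP c y).1 :=
  Cfsg.Agent.Lib.Fischer.M22.Compare.iso_of_equiv U4.tt4 U4.tt4 U4.closure4 U4.closure4 U4.center4 U4.center4 (PhiP c)
    (Phi_tp c)

/-- The automorphism induced by an element of the centralizer. -/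
noncomputable def autE (c : ↥CA) : MulAut U4.PS := (exists_aut c).choose

theorem autE_val (c : ↥CA) (y : ↥U4.D4) : autE c y.1 = (PhiP c y).1 := (exists_aut c).choose_spec y

/-- The homomorphism to the automorphism group of `PSU₄(2)`. -/
noncomputable def autA : ↥CA →* MulAut U4.PS :=
  MonoidHom.mk' autE fun a b => ext_D4 fun y hy => by
    have h1 := autE_val (a * b) ⟨y, hy⟩
    rw [map_mul] at h1
    rw [show autE (a * b) y = _ from h1]
    show _ = autE a (autE b y)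
    rw [show autE b y = _ from autE_val b ⟨y, hy⟩, autE_val a]
    rfl

theorem autA_cl (c : ↥CA) {p : Fin NN} (hp : AA p) : autA c (cl p) = cl (pA c.1 p) := by
  show autE c (cl p) = _
  rw [show autE c (cl p) = _ from autE_val c ⟨cl p, cl_mem hp⟩]
  exact PhiP_val c hp rfl

/-- An element fixing the classes of the labels is in the kernel. -/
theorem autA_eq_one (c : ↥CA) (h : ∀ p, AA p → cl (pA c.1 p) = cl p) : autA c = 1 := by
  apply ext_D4
  intro y hy
  obtain ⟨q, hq, rfl⟩ := cl_surj hy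
  rw [autA_cl _ hq, h q hq]
  rfl

theorem autA_conj (c : ↥C0) : autA ⟨MulAut.conj c.1, conj_mem_CA c.2⟩ = autC c := by
  apply ext_D4
  intro y hy
  obtain ⟨q, hq, rfl⟩ := cl_surj hy
  rw [autA_cl _ hq, autC_cl _ hq, pA_conj]

theorem autA_surj : Function.Surjective autA := by
  intro x
  obtain ⟨c, hc⟩ := autC_surj x
  exact ⟨⟨MulAut.conj c.1, conj_mem_CA c.2⟩, by rw [autA_conj, hc]⟩

end Cfsg.Agent.Lib.Fischer.M22.AutPair
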