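/-
A subgroup of odd order normalized by a 2-group with a central involution acting without fixed points is abelian and
inverted; if moreover the 2-group contains symplectic pairs, the order of the subgroup is a large power.
-/
import Mathlib

set_option autoImplicit false
set_option linter.unusedSectionVars false
set_option linter.unusedVariables false

namespace Cfsg.Agent.Lib.Fischer.M22.AutPair.OddK

variable {A : Type*} [Group A] [Finite A]

theorem eq_one_of_pow2 {K : Subgroup A} (hK : Odd (Nat.card K)) {k : A} (hk : k ∈ K) {n : ℕ} (h : k ^ (2 ^ n) = 1) : k = 1 := by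
  have hc : (Nat.card K).Coprime (2 ^ n) := Nat.Coprime.pow_right _ (Nat.coprime_two_right.2 hK)
  have h1 : (powCoprime hc) (⟨k, hk⟩ : ↥K) = (powCoprime hc) 1 := by
    apply Subtype.ext
    simp [powCoprime_apply, h]
  have h2 := (powCoprime hc).injective h1
  exact congrArg Subtype.val h2

theorem eq_one_of_sq {K : Subgroup A} (hK : Odd (Nat.card K)) {k : A} (hk : k ∈ K) (h : k * k = 1) : k = 1 :=
  eq_one_of_pow2 hK hk (n := 1) (by rw [pow_one, pow_two]; exact h)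

theorem exists_sq_root {K : Subgroup A} (hK : Odd (Nat.card K)) {k : A} (hk : k ∈ K) : ∃ u ∈ K, u * u = k := by
  have hc : (Nat.card K).Coprime 2 := Nat.coprime_two_right.2 hK
  let u := (powCoprime hc).symm ⟨k, hk⟩
  refine ⟨u.1, u.2, ?_⟩
  have h : (powCoprime hc) u = ⟨k, hk⟩ := (powCoprime hc).apply_symm_apply _
  rw [powCoprime_apply, pow_two] at h
  exact congrArg Subtype.val h

/-- A fixed-point-free involutory automorphism inverts. -/
theorem inverts {K : Subgroup A} {z : A} (hzK : ∀ k ∈ K, z * k * z⁻¹ ∈ K) (hz2 : z * z = 1)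
    (hfix : ∀ k ∈ K, z * k * z⁻¹ = k → k = 1) : ∀ k ∈ K, z * k * z⁻¹ = k⁻¹ := by
  classical
  haveI : Finite ↥K := inferInstance
  have hzi : z⁻¹ = z := inv_eq_of_mul_eq_one_left hz2
  let f : ↥K → ↥K := fun k => ⟨k.1⁻¹ * (z * k.1 * z⁻¹), mul_mem (inv_mem k.2) (hzK _ k.2)⟩
  have hinj : Function.Injective f := by
    intro a b hab
    have h1 : a.1⁻¹ * (z * a.1 * z⁻¹) = b.1⁻¹ * (z * b.1 * z⁻¹) := congrArg Subtype.val hab
    have h2 : z * (b.1 * a.1⁻¹) * z⁻¹ = b.1 * a.1⁻¹ := by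
      have e : b.1 * (a.1⁻¹ * (z * a.1 * z⁻¹)) * (z * a.1⁻¹ * z⁻¹) = b.1 * a.1⁻¹ := by group
      have e2 : b.1 * (b.1⁻¹ * (z * b.1 * z⁻¹)) * (z * a.1⁻¹ * z⁻¹) = z * (b.1 * a.1⁻¹) * z⁻¹ := by group
      rw [← e2, ← h1, e]
    have h3 := hfix _ (mul_mem b.2 (inv_mem a.2)) h2
    apply Subtype.ext
    exact (mul_inv_eq_one.1 h3).symm
  have hsurj : Function.Surjective f := Finite.surjective_of_injective hinj
  intro k hk
  obtain ⟨l, hl⟩ := hsurj ⟨k, hk⟩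
  have e : k = l.1⁻¹ * (z * l.1 * z⁻¹) := (congrArg Subtype.val hl).symm
  rw [e, hzi]
  have e3 : z * (l.1⁻¹ * (z * l.1 * z)) * z = z * l.1⁻¹ * z * l.1 * (z * z) := by group
  rw [e3, hz2, mul_one]
  simp only [mul_inv_rev, inv_inv, hzi]
  group

theorem comm_of_inv {K : Subgroup A} {z : A} (hinv : ∀ k ∈ K, z * k * z⁻¹ = k⁻¹) {k l : A} (hk : k ∈ K) (hl : l ∈ K) :
    k * l = l * k := by
  have h1 := hinv _ (mul_mem hk hl)
  have e : z * (k * l) * z⁻¹ = (z * k * z⁻¹) * (z * l * z⁻¹) := by group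
  rw [e, hinv k hk, hinv l hl] at h1
  have h2 : (k⁻¹ * l⁻¹)⁻¹ = ((k * l)⁻¹)⁻¹ := by rw [h1]
  rw [inv_inv, mul_inv_rev, inv_inv, inv_inv] at h2
  exact h2.symm

/-- One step: the centralizer of `x` in `K` has square order. -/
theorem step {K N : Subgroup A} {z x y : A} (hodd : Odd (Nat.card K)) (hinv : ∀ k ∈ K, z * k * z⁻¹ = k⁻¹)
    (hN : ∀ w ∈ N, ∀ k ∈ K, w * k * w⁻¹ ∈ K) (hx : x ∈ N) (hy : y ∈ N) (hx2 : x * x = 1) (hz2 : z * z = 1)
    (hzy : z * y = y * z) (hxy : x * y * x⁻¹ * y⁻¹ = z) :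
    Nat.card K = Nat.card ↥(K ⊓ Subgroup.centralizer ({x} : Set A)) ^ 2 := by
  classical
  set C := K ⊓ Subgroup.centralizer ({x} : Set A) with hC
  have hcomm : ∀ {k l : A}, k ∈ K → l ∈ K → k * l = l * k := fun hk hl => comm_of_inv hinv hk hl
  have hxi : x⁻¹ = x := inv_eq_of_mul_eq_one_left hx2
  have hzi : z⁻¹ = z := inv_eq_of_mul_eq_one_left hz2
  have hxx : ∀ g : A, x * (x * g * x⁻¹) * x⁻¹ = g := by
    intro g
    rw [hxi]
    calc x * (x * g * x) * x = (x * x) * g * (x * x) := by group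
      _ = g := by rw [hx2]; group
  have memC : ∀ {c : A}, c ∈ C ↔ c ∈ K ∧ x * c * x⁻¹ = c := by
    intro c
    rw [hC, Subgroup.mem_inf, Subgroup.mem_centralizer_singleton_iff]
    constructor
    · rintro ⟨h1, h2⟩
      refine ⟨h1, ?_⟩
      rw [← h2]
      group
    · rintro ⟨h1, h2⟩
      refine ⟨h1, ?_⟩
      nth_rewrite 1 [← h2]
      group
  have hyC : ∀ {c : A}, c ∈ C → y * c * y⁻¹ ∈ K := fun hc => hN y hy _ (memC.1 hc).1
  have hxy' : x * y = z * y * x := by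
    rw [← hxy]
    group
  have key : ∀ {c : A}, c ∈ C → x * (y * c * y⁻¹) * x⁻¹ = (y * c * y⁻¹)⁻¹ := by
    intro c hc
    have h1 : x * (y * c * y⁻¹) * x⁻¹ = (x * y) * c * (x * y)⁻¹ := by group
    rw [h1, hxy']
    have h2 : z * y * x * c * (z * y * x)⁻¹ = z * (y * (x * c * x⁻¹) * y⁻¹) * z⁻¹ := by group
    rw [h2, (memC.1 hc).2]
    exact hinv _ (hyC hc)
  let g : ↥C × ↥C → ↥K := fun a => ⟨a.1.1 * (y * a.2.1 * y⁻¹), mul_mem (memC.1 a.1.2).1 (hyC a.2.2)⟩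
  have hg : Function.Bijective g := by
    constructor
    · rintro ⟨c1, c1'⟩ ⟨c2, c2'⟩ h
      have h1 : c1.1 * (y * c1'.1 * y⁻¹) = c2.1 * (y * c2'.1 * y⁻¹) := congrArg Subtype.val h
      set u := c2.1⁻¹ * c1.1 with hu
      have huC : u ∈ C := mul_mem (inv_mem c2.2) c1.2
      have e1 : u = y * (c2'.1 * c1'.1⁻¹) * y⁻¹ := by
        have : c2.1⁻¹ * (c1.1 * (y * c1'.1 * y⁻¹)) * (y * c1'.1⁻¹ * y⁻¹) = u := by
          rw [hu]
          group
        rw [← this, h1]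
        group
      have hvC : c2'.1 * c1'.1⁻¹ ∈ C := mul_mem c2'.2 (inv_mem c1'.2)
      have e2 := key hvC
      rw [← e1, (memC.1 huC).2] at e2
      have hu1 : u * u = 1 := by
        nth_rewrite 1 [e2]
        group
      have hu2 : u = 1 := eq_one_of_sq hodd (memC.1 huC).1 hu1
      have e3 : c1.1 = c2.1 := by
        rw [hu] at hu2
        exact (inv_mul_eq_one.1 hu2).symm
      have e4 : c2'.1 * c1'.1⁻¹ = 1 := by
        rw [hu2] at e1
        have : y⁻¹ * (y * (c2'.1 * c1'.1⁻¹) * y⁻¹) * y = c2'.1 * c1'.1⁻¹ := by group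
        rw [← this, ← e1]
        group
      have e5 : c2'.1 = c1'.1 := mul_inv_eq_one.1 e4
      exact Prod.ext (Subtype.ext e3) (Subtype.ext e5.symm)
    · rintro ⟨k, hk⟩
      obtain ⟨u, hu, rfl⟩ := exists_sq_root hodd hk
      have hxu : x * u * x⁻¹ ∈ K := hN x hx _ hu
      have hcC : u * (x * u * x⁻¹) ∈ C := by
        refine memC.2 ⟨mul_mem hu hxu, ?_⟩
        have e : x * (u * (x * u * x⁻¹)) * x⁻¹ = (x * u * x⁻¹) * (x * (x * u * x⁻¹) * x⁻¹) := by group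
        rw [e, hxx]
        exact hcomm hxu hu
      set i := u * (x * u * x⁻¹)⁻¹ with hi
      have hiK : i ∈ K := mul_mem hu (inv_mem hxu)
      have hxi' : x * i * x⁻¹ = i⁻¹ := by
        have e : x * (u * (x * u * x⁻¹)⁻¹) * x⁻¹ = (x * u * x⁻¹) * (x * (x * u * x⁻¹) * x⁻¹)⁻¹ := by group
        rw [hi, e, hxx]
        simp only [mul_inv_rev, inv_inv]
      have hyi : y⁻¹ * i * y ∈ K := by
        have := hN _ (inv_mem hy) i hiK
        rwa [inv_inv] at this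
      have hcC' : y⁻¹ * i * y ∈ C := by
        refine memC.2 ⟨hyi, ?_⟩
        have hzy' : z * y⁻¹ = y⁻¹ * z := by
          have : y⁻¹ * (z * y) * y⁻¹ = y⁻¹ * (y * z) * y⁻¹ := by rw [hzy]
          calc z * y⁻¹ = y⁻¹ * (y * z) * y⁻¹ := by group
            _ = y⁻¹ * (z * y) * y⁻¹ := by rw [hzy]
            _ = y⁻¹ * z := by group
        have hxy2 : x * y⁻¹ = z * y⁻¹ * x := by
          -- from `x y = z y x`
          have h1 : y⁻¹ * (x * y) * y⁻¹ = y⁻¹ * (z * y * x) * y⁻¹ := by rw [hxy']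
          have h2 : y⁻¹ * x = y⁻¹ * (z * y) * x * y⁻¹ := by
            calc y⁻¹ * x = y⁻¹ * (x * y) * y⁻¹ := by group
              _ = y⁻¹ * (z * y * x) * y⁻¹ := h1
              _ = _ := by group
          rw [hzy] at h2
          have h3 : y⁻¹ * (y * z) * x * y⁻¹ = z * (x * y⁻¹) := by group
          rw [h3] at h2
          calc x * y⁻¹ = z * (z * (x * y⁻¹)) := by rw [← mul_assoc, hz2, one_mul]
            _ = z * (y⁻¹ * x) := by rw [h2]
            _ = z * y⁻¹ * x := by group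
        have e : x * (y⁻¹ * i * y) * x⁻¹ = z * (y⁻¹ * (x * i * x⁻¹) * y) * z⁻¹ := by
          have e1 : x * (y⁻¹ * i * y) * x⁻¹ = (x * y⁻¹) * i * (x * y⁻¹)⁻¹ := by group
          rw [e1, hxy2]
          group
        rw [e, hxi']
        have := hinv _ (inv_mem hyi)
        have e2 : (y⁻¹ * i * y)⁻¹ = y⁻¹ * i⁻¹ * y := by group
        rw [e2] at this
        rw [this, ← e2, inv_inv]
      refine ⟨(⟨_, hcC⟩, ⟨_, hcC'⟩), Subtype.ext ?_⟩
      show u * (x * u * x⁻¹) * (y * (y⁻¹ * i * y) * y⁻¹) = u * u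
      have e : y * (y⁻¹ * i * y) * y⁻¹ = i := by group
      rw [e, hi]
      have h1 := hcomm hxu (mul_mem hu (inv_mem hxu))
      calc u * (x * u * x⁻¹) * (u * (x * u * x⁻¹)⁻¹) = u * ((x * u * x⁻¹) * (u * (x * u * x⁻¹)⁻¹)) := by group
        _ = u * ((u * (x * u * x⁻¹)⁻¹) * (x * u * x⁻¹)) := by rw [h1]
        _ = u * u := by group
  have h := Nat.card_congr (Equiv.ofBijective g hg)
  rw [Nat.card_prod] at h
  rw [← h, pow_two]

/-- The normalization at the next step. -/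
theorem step_norm {K N : Subgroup A} {x : A} (hN : ∀ w ∈ N, ∀ k ∈ K, w * k * w⁻¹ ∈ K) :
    ∀ w ∈ N ⊓ Subgroup.centralizer ({x} : Set A), ∀ k ∈ K ⊓ Subgroup.centralizer ({x} : Set A),
      w * k * w⁻¹ ∈ K ⊓ Subgroup.centralizer ({x} : Set A) := by
  rintro w ⟨hw, hwx⟩ k ⟨hk, hkx⟩
  have hwx' : w ∈ Subgroup.centralizer ({x} : Set A) := hwx
  have hkx' : k ∈ Subgroup.centralizer ({x} : Set A) := hkx
  have h3 : w * k * w⁻¹ ∈ Subgroup.centralizer ({x} : Set A) :=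
    Subgroup.mul_mem _ (Subgroup.mul_mem _ hwx' hkx') (Subgroup.inv_mem _ hwx')
  exact ⟨hN w hw k hk, h3⟩

theorem odd_inf {K : Subgroup A} (hK : Odd (Nat.card K)) (L : Subgroup A) : Odd (Nat.card ↥(K ⊓ L)) := by
  have h : Nat.card ↥(K ⊓ L) ∣ Nat.card K := by
    have := Subgroup.card_dvd_of_le (inf_le_left : K ⊓ L ≤ K)
    exact this
  exact Odd.of_dvd_nat hK h

/-- **No non-trivial subgroup of odd order is normalized.** -/
theorem main_odd {Q : Subgroup A} {z : A} (hz2 : z * z = 1) (hzc : ∀ q ∈ Q, q * z = z * q) (h2 : IsPGroup 2 ↥Q)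
    (hnorm : ∀ c, c * z = z * c → ∀ q ∈ Q, c * q * c⁻¹ ∈ Q) (hzQ : z ∈ Q)
    (hcent : ∀ c, (∀ q ∈ Q, q * c = c * q) → c = 1 ∨ c = z)
    {x1 x2 x3 x4 y1 y2 y3 y4 : A}
    (hx1 : x1 ∈ Q) (hx2 : x2 ∈ Q) (hx3 : x3 ∈ Q) (hx4 : x4 ∈ Q) (hy1 : y1 ∈ Q) (hy2 : y2 ∈ Q) (hy3 : y3 ∈ Q) (hy4 : y4 ∈ Q)
    (s1 : x1 * x1 = 1) (s2 : x2 * x2 = 1) (s3 : x3 * x3 = 1) (s4 : x4 * x4 = 1)
    (c1 : x1 * y1 * x1⁻¹ * y1⁻¹ = z) (c2 : x2 * y2 * x2⁻¹ * y2⁻¹ = z) (c3 : x3 * y3 * x3⁻¹ * y3⁻¹ = z) (c4 : x4 * y4 * x4⁻¹ * y4⁻¹ = z)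
    (e12 : x2 * x1 = x1 * x2) (e13 : x3 * x1 = x1 * x3) (e14 : x4 * x1 = x1 * x4) (e23 : x3 * x2 = x2 * x3) (e24 : x4 * x2 = x2 * x4)
    (e34 : x4 * x3 = x3 * x4)
    (f12 : y2 * x1 = x1 * y2) (f13 : y3 * x1 = x1 * y3) (f14 : y4 * x1 = x1 * y4) (f23 : y3 * x2 = x2 * y3) (f24 : y4 * x2 = x2 * y4)
    (f34 : y4 * x3 = x3 * y4)
    (hbound : ∀ m : ℕ, Odd m → 1 < m → ¬ m ^ 16 ∣ Nat.card A)
    (K : Subgroup A) (hK : Odd (Nat.card K)) (hQK : Q ≤ Subgroup.normalizer (K : Set A)) : K = ⊥ := by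
  have hQK' : ∀ w ∈ Q, ∀ k ∈ K, w * k * w⁻¹ ∈ K := fun w hw k hk => (Subgroup.mem_normalizer_iff.1 (hQK hw) k).1 hk
  have hzK := hQK' z hzQ
  -- no fixed points
  have hfix : ∀ k ∈ K, z * k * z⁻¹ = k → k = 1 := by
    intro k hk hkz
    have hkz' : k * z = z * k := by
      calc k * z = (z * k * z⁻¹) * z := by rw [hkz]
        _ = z * k := by group
    have hall : ∀ q ∈ Q, q * k = k * q := by
      intro q hq
      have h3 : k * q * k⁻¹ * q⁻¹ ∈ Q := mul_mem (hnorm k hkz' q hq) (inv_mem hq)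
      have h4 : k * q * k⁻¹ * q⁻¹ ∈ K := by
        have := mul_mem hk (hQK' q hq _ (inv_mem hk))
        have e : k * (q * k⁻¹ * q⁻¹) = k * q * k⁻¹ * q⁻¹ := by group
        rwa [e] at this
      obtain ⟨n, hn⟩ := (IsPGroup.iff_card.1 h2)
      have h5 : (k * q * k⁻¹ * q⁻¹) ^ (2 ^ n) = 1 := by
        have := pow_card_eq_one' (x := (⟨_, h3⟩ : ↥Q))
        rw [hn] at this
        exact congrArg Subtype.val this
      have h6 := eq_one_of_pow2 hK h4 h5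
      have h7 : k * q * k⁻¹ = q := mul_inv_eq_one.1 h6
      calc q * k = k * q * k⁻¹ * k := by rw [h7]
        _ = k * q := by group
    rcases hcent k hall with h | h
    · exact h
    · subst h
      exact eq_one_of_sq hK hk hz2
  have hinv := inverts hzK hz2 hfix
  -- the four steps
  have hN1 := step_norm (x := x1) hQK'
  have hN2 := step_norm (x := x2) hN1
  have hN3 := step_norm (x := x3) hN2
  have m1 : ∀ {w}, w ∈ Q → w * x1 = x1 * w → w ∈ Q ⊓ Subgroup.centralizer ({x1} : Set A) := fun a b =>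
    ⟨a, Subgroup.mem_centralizer_singleton_iff.2 b⟩
  have m2 : ∀ {w}, w ∈ Q → w * x1 = x1 * w → w * x2 = x2 * w →
      w ∈ (Q ⊓ Subgroup.centralizer ({x1} : Set A)) ⊓ Subgroup.centralizer ({x2} : Set A) := fun a b c =>
    ⟨m1 a b, Subgroup.mem_centralizer_singleton_iff.2 c⟩
  have m3 : ∀ {w}, w ∈ Q → w * x1 = x1 * w → w * x2 = x2 * w → w * x3 = x3 * w →
      w ∈ ((Q ⊓ Subgroup.centralizer ({x1} : Set A)) ⊓ Subgroup.centralizer ({x2} : Set A)) ⊓ Subgroup.centralizer ({x3} : Set A) :=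
    fun a b c d => ⟨m2 a b c, Subgroup.mem_centralizer_singleton_iff.2 d⟩
  have hzy : ∀ {w}, w ∈ Q → z * w = w * z := fun hw => (hzc _ hw).symm
  set K1 := K ⊓ Subgroup.centralizer ({x1} : Set A) with hK1
  set K2 := K1 ⊓ Subgroup.centralizer ({x2} : Set A) with hK2
  set K3 := K2 ⊓ Subgroup.centralizer ({x3} : Set A) with hK3
  set K4 := K3 ⊓ Subgroup.centralizer ({x4} : Set A) with hK4
  have o1 : Odd (Nat.card K1) := odd_inf hK _
  have o2 : Odd (Nat.card K2) := odd_inf o1 _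
  have o3 : Odd (Nat.card K3) := odd_inf o2 _
  have o4 : Odd (Nat.card K4) := odd_inf o3 _
  have i1 : ∀ k ∈ K1, z * k * z⁻¹ = k⁻¹ := fun k hk => hinv k hk.1
  have i2 : ∀ k ∈ K2, z * k * z⁻¹ = k⁻¹ := fun k hk => i1 k hk.1
  have i3 : ∀ k ∈ K3, z * k * z⁻¹ = k⁻¹ := fun k hk => i2 k hk.1
  have t1 := step hK hinv hQK' hx1 hy1 s1 hz2 (hzy hy1) c1
  have t2 := step o1 i1 hN1 (m1 hx2 e12) (m1 hy2 f12) s2 hz2 (hzy hy2) c2
  have t3 := step o2 i2 hN2 (m2 hx3 e13 e23) (m2 hy3 f13 f23) s3 hz2 (hzy hy3) c3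
  have t4 := step o3 i3 hN3 (m3 hx4 e14 e24 e34) (m3 hy4 f14 f24 f34) s4 hz2 (hzy hy4) c4
  have hcard : Nat.card K = Nat.card K4 ^ 16 := by
    rw [t1, t2, t3, t4]
    ring
  by_contra hne
  have hne' : Nat.card K4 ≠ 1 := by
    intro h
    apply hne
    have h1 : Nat.card K = 1 := by
      rw [hcard, h]
      norm_num
    exact (Subgroup.card_eq_one.1 h1)
  have hpos : 0 < Nat.card K4 := Nat.card_pos
  refine hbound _ o4 (by omega) ?_
  rw [← hcard]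
  exact Subgroup.card_subgroup_dvd_card K

end Cfsg.Agent.Lib.Fischer.M22.AutPair.OddK
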