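/-
The kernel `Q` of the action of the centralizer, in the automorphism group of the explicit model of type `M(22)`, of the
product of two commuting transpositions, on `PSU₄(2)`: it is the inner part `EE` extended by an explicit involution `τ`.
-/
import Mathlib
import Cfsg.Agent.Lib.Fischer.M22.AutPair.Act
import Cfsg.Agent.Lib.Fischer.M22.AutPair.TwData
import Cfsg.Agent.Lib.Fischer.M22.Rows.Out.Cls2

set_option autoImplicit false
set_option linter.unusedSectionVars false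
set_option linter.unusedSimpArgs false
set_option linter.unusedVariables false
set_option maxRecDepth 100000

namespace Cfsg.Agent.Lib.Fischer.M22.AutPair

open Cfsg Cfsg.Agent.Lib.Fischer.Basic Cfsg.Agent.Lib.Fischer.Local
open Cfsg.Agent.Lib.Fischer.M22.Model Cfsg.Agent.Lib.Fischer.M22.Bridge
open Cfsg.Agent.Lib.Fischer.M22.Explicit
open Cfsg.Agent.Lib.Compute.ToddCoxeterCore Cfsg.Agent.Lib.Compute.TCChain
open Cfsg.Agent.Lib.Fischer.M22.Rows (wE run aV wOK tv tv_spec)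
open Cfsg.Agent.Lib.Fischer.M22.Rows.Out (piv s0 s0_outer aut_conj conj_inj)
open Cfsg.Agent.Lib.Fischer.M22.Pair (AA AA_PP AA_iff cl C0 K0 EE V0 J0 E2 E2_eq gg gv gg_val chkA same T_same mem_EE EE_le_C0 lab lab_val
  pairs pairs_spec gg_inv gensL gens_cases t_val twin_mem a0_mem_EE b0_mem_EE comm_a0_b0 mem_V0 mem_V0_of_fix mem_J0_of V0_central J0_central
  J0_le_V0 V0_le_EE E2_le_K0 center_EE cmJ_all sqJ_all)

/-! ### The involution -/

/-- The word of the inner part. -/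
def Wτ : List ℕ := [17, 651, 628, 878, 884, 885, 17, 20]

/-- The outer involution. -/
noncomputable def τ : MulAut G0 := MulAut.conj (wE Wτ) * s0

/-- Its action on labels. -/
noncomputable def τv (u : ℕ) : ℕ := run aV Wτ (piv u)

theorem Wτ_ok : wOK Wτ = true := by decide +kernel

theorem tn_lab {n : ℕ} (hn : n < 3510) : Rows.tn n = t (lab n) := by
  have := Rows.tn_val (lab n)
  rwa [lab_val hn] at this

theorem τv_lt {u : ℕ} (hu : u < 3510) : τv u < 3510 :=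
  Rows.Out.run_lt Wτ_ok (Rows.Out.piv_lt hu)

theorem τ_tn {u : ℕ} (hu : u < 3510) : τ (Rows.tn u) = Rows.tn (τv u) := by
  show MulAut.conj (wE Wτ) (s0 (Rows.tn u)) = _
  rw [Rows.Out.s0_tn hu, Rows.Out.conj_wE Wτ_ok (Rows.Out.piv_lt hu)]
  rfl

theorem τ_lab {u : ℕ} (hu : u < 3510) : τ (t (lab u)) = t (lab (τv u)) := by
  rw [← tn_lab hu, τ_tn hu, tn_lab (τv_lt hu)]

theorem lab_eq (p : Fin NN) : lab p = p := Fin.ext (lab_val p.2)

theorem pA_τ (p : Fin NN) : pA τ p = lab (τv p) := by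
  apply t_inj
  rw [← pA_spec]
  have h := τ_lab p.2
  rwa [lab_eq] at h

theorem τv_0 : τv 0 = 6 ∧ τv 6 = 0 := by decide +kernel

theorem lab_0 : lab 0 = pt0 := rfl

theorem lab_6 : lab 6 = lb6 := rfl

theorem τ_a0 : τ a0 = t lb6 := by
  have h := τ_lab (u := 0) (by norm_num)
  rwa [lab_0, t_pt0, τv_0.1, lab_6] at h

theorem τ_b0 : τ (t lb6) = a0 := by
  have h := τ_lab (u := 6) (by norm_num)
  rwa [lab_6, τv_0.2, lab_0, t_pt0] at h

theorem τ_sq_chk : (List.range 9).all (fun k => Nat.beq (τv (τv (Rows.lab k))) (Rows.lab k)) = true := by decide +kernel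

theorem τ_sq : τ * τ = 1 := by
  apply Rows.Out.aut_ext
  intro k hk
  have h1 := Rows.lab_lt k (by omega : k < 16)
  have h2 := Nat.eq_of_beq_eq_true (List.all_eq_true.1 τ_sq_chk k (List.mem_range.2 hk))
  show τ (τ _) = _
  rw [τ_tn h1, τ_tn (τv_lt h1), h2]
  rfl

theorem τ_inv : τ⁻¹ = τ := inv_eq_of_mul_eq_one_left τ_sq

theorem τ_τ (x : G0) : τ (τ x) = x := by
  show (τ * τ) x = x
  rw [τ_sq]
  rfl

theorem τ_mem_CA : τ ∈ CA := by
  rw [mem_CA, map_mul, τ_a0, τ_b0]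
  exact comm_a0_b0.symm.eq

theorem τ_outer (g : G0) : MulAut.conj g ≠ τ := by
  intro h
  apply s0_outer ((wE Wτ)⁻¹ * g)
  rw [map_mul, h, map_inv]
  unfold τ
  group

theorem τ_chk : allFrom (fun u => !(chkA u) || same (code u) (code (τv u))) (nat_lit 3510) (nat_lit 0) = true := by
  decide +kernel

theorem chkA_of {p : Fin NN} (h : AA p) : chkA p = true := by
  obtain ⟨h1, h2, h3⟩ := h
  unfold chkA
  simp only [Bool.and_eq_true, Bool.not_eq_true']
  refine ⟨⟨⟨(Cfsg.Agent.Lib.Fischer.M22.Fast.blt_iff _ _).2 p.2, ?_⟩, h2⟩, ?_⟩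
  · rw [h1]
    rfl
  · cases hb : Nat.beq (code p) 5 with
    | false => rfl
    | true => exact absurd (Nat.eq_of_beq_eq_true hb) h3

theorem τ_cl {p : Fin NN} (h : AA p) : cl (pA τ p) = cl p := by
  have h1 := allFrom_spec τ_chk p (Nat.zero_le _) (by show (p : ℕ) < 0 + 3510; rw [zero_add]; exact p.2)
  rw [chkA_of h] at h1
  have h2 : same (code p) (code (τv p)) = true := by simpa using h1
  rw [pA_τ]
  have h3 := T_same (AA_PP h) h2
  show Pair.U4.T (Pair.w (code ((lab (τv p) : Fin NN) : ℕ))) = Pair.U4.T (Pair.w (code p))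
  rw [lab_val (τv_lt p.2)]
  exact h3

theorem τ_aut : autA ⟨τ, τ_mem_CA⟩ = 1 := autA_eq_one _ fun _ h => τ_cl h

/-! ### The kernel -/

/-- The kernel in the automorphism group. -/
noncomputable def Q : Subgroup (MulAut G0) := autA.ker.map CA.subtype

theorem mem_Q {x : MulAut G0} : x ∈ Q ↔ ∃ h : x ∈ CA, autA ⟨x, h⟩ = 1 := by
  constructor
  · rintro ⟨y, hy, rfl⟩
    exact ⟨y.2, hy⟩
  · rintro ⟨h, e⟩
    exact ⟨⟨x, h⟩, e, rfl⟩

theorem Q_le_CA : Q ≤ CA := fun _ hx => (mem_Q.1 hx).1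

theorem τ_mem_Q : τ ∈ Q := mem_Q.2 ⟨τ_mem_CA, τ_aut⟩

theorem conj_mem_Q {e : G0} (he : e ∈ EE) : MulAut.conj e ∈ Q := by
  obtain ⟨h, e1⟩ := mem_EE.1 he
  refine mem_Q.2 ⟨conj_mem_CA h, ?_⟩
  rw [show (⟨MulAut.conj e, conj_mem_CA h⟩ : ↥CA) = ⟨MulAut.conj (⟨e, h⟩ : ↥C0).1, conj_mem_CA h⟩ from rfl, autA_conj, e1]

theorem mem_EE_of_conj {e : G0} (he : MulAut.conj e ∈ Q) : e ∈ EE := by
  obtain ⟨h, e1⟩ := mem_Q.1 he
  have hc := mem_C0_of_conj h
  refine mem_EE.2 ⟨hc, ?_⟩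
  rw [← autA_conj]
  exact e1

theorem Q_dich {x : MulAut G0} (hx : x ∈ Q) : ∃ e ∈ EE, x = MulAut.conj e ∨ x = MulAut.conj e * τ := by
  obtain ⟨g, hg | hg⟩ := Rows.Out.exists_inner x
  · refine ⟨g, mem_EE_of_conj (hg ▸ hx), Or.inl hg⟩
  · have e : x * τ = MulAut.conj (g * wE Wτ) * (s0 * s0) ∨ True := Or.inr trivial
    -- `x = conj (g * w⁻¹) * τ`
    have e1 : x = MulAut.conj (g * (wE Wτ)⁻¹) * τ := by
      rw [hg, map_mul, map_inv]
      unfold τ
      group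
    have e2 : MulAut.conj (g * (wE Wτ)⁻¹) = x * τ := by
      rw [e1, mul_assoc, τ_sq, mul_one]
    refine ⟨_, mem_EE_of_conj (e2 ▸ mul_mem hx τ_mem_Q), Or.inr e1⟩

theorem EE_le_K0 : EE ≤ K0 := by
  rw [← E2_eq]
  exact E2_le_K0

theorem Q_normal {c x : MulAut G0} (hc : c ∈ CA) (hx : x ∈ Q) : c * x * c⁻¹ ∈ Q := by
  obtain ⟨h, e⟩ := mem_Q.1 hx
  refine mem_Q.2 ⟨mul_mem (mul_mem hc h) (inv_mem hc), ?_⟩
  have e1 : (⟨c * x * c⁻¹, mul_mem (mul_mem hc h) (inv_mem hc)⟩ : ↥CA) = ⟨c, hc⟩ * ⟨x, h⟩ * (⟨c, hc⟩ : ↥CA)⁻¹ := rfl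
  rw [e1, map_mul, map_mul, e, mul_one, map_inv, mul_inv_cancel]

/-! ### The action on the inner part -/

theorem τ_EE {e : G0} (he : e ∈ EE) : τ e ∈ EE := by
  have h := Q_normal τ_mem_CA (conj_mem_Q he)
  rw [aut_conj, mul_assoc, mul_inv_cancel, mul_one] at h
  exact mem_EE_of_conj h

/-- The check on the generators of the kernel. -/
theorem τgg_chk : pairs.all (fun x =>
    [66, 62, 43, 40].all (fun r => Nat.beq (tv (τv x.1) (tv (τv x.2) (gv x.swap r))) r) &&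
      (Nat.beq (tv (τv x.1) (tv (τv x.2) (gv x.swap 5))) 5 == Nat.beq (tv (τv x.1) (tv (τv x.2) (gv x.swap 10))) 10)) = true := by
  decide +kernel

theorem τ_gg {x : ℕ × ℕ} (hx : x ∈ pairs) : τ (gg x) * (gg x)⁻¹ ∈ J0 := by
  obtain ⟨-, -, x1, x2, -⟩ := pairs_spec hx
  have hg : gg x ∈ EE := Pair.gg_mem_EE hx
  have hm : τ (gg x) * (gg x)⁻¹ ∈ EE := mul_mem (τ_EE hg) (inv_mem hg)
  have e : τ (gg x) = t (lab (τv x.1)) * t (lab (τv x.2)) := by
    show τ (t (lab x.1) * t (lab x.2)) = _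
    rw [map_mul, τ_lab x1, τ_lab x2]
  have key : ∀ r : Fin NN, ((φ (τ (gg x) * (gg x)⁻¹) r : Fin NN) : ℕ) = tv (τv x.1) (tv (τv x.2) (gv x.swap r)) := by
    intro r
    rw [e, gg_inv]
    simp only [map_mul, Equiv.Perm.coe_mul, Function.comp_apply]
    rw [t_val (τv_lt x1), t_val (τv_lt x2)]
    rw [gg_val (x := x.swap) x2 x1]
  have h := List.all_eq_true.1 τgg_chk x hx
  rw [Bool.and_eq_true] at h
  obtain ⟨h1, h2⟩ := h
  have hfix : ∀ b ∈ [lab 66, lab 62, lab 43, lab 40], φ (τ (gg x) * (gg x)⁻¹) b = b := by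
    intro b hb
    apply Fin.ext
    rw [key]
    simp only [List.mem_cons, List.not_mem_nil, or_false] at hb
    rcases hb with rfl | rfl | rfl | rfl
    · exact Nat.eq_of_beq_eq_true (List.all_eq_true.1 h1 66 (by simp))
    · exact Nat.eq_of_beq_eq_true (List.all_eq_true.1 h1 62 (by simp))
    · exact Nat.eq_of_beq_eq_true (List.all_eq_true.1 h1 43 (by simp))
    · exact Nat.eq_of_beq_eq_true (List.all_eq_true.1 h1 40 (by simp))
  apply mem_J0_of (mem_V0_of_fix hm hfix)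
  have e1 : φ (τ (gg x) * (gg x)⁻¹) (lab 5) = lab 5 ↔
      Nat.beq (tv (τv x.1) (tv (τv x.2) (gv x.swap 5))) 5 = true := by
    rw [Nat.beq_eq, ← show ((lab 5 : Fin NN) : ℕ) = 5 from rfl, ← key]
    exact Fin.ext_iff
  have e2 : φ (τ (gg x) * (gg x)⁻¹) (lab 10) = lab 10 ↔
      Nat.beq (tv (τv x.1) (tv (τv x.2) (gv x.swap 10))) 10 = true := by
    rw [Nat.beq_eq, ← show ((lab 10 : Fin NN) : ℕ) = 10 from rfl, ← key]
    exact Fin.ext_iff
  rw [e1, e2]
  have hc' := beq_iff_eq.1 h2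
  rw [hc']

/-- The twisting of an element of the kernel lies in the centre. -/
theorem τ_E2 {e : G0} (he : e ∈ E2) : τ e * e⁻¹ ∈ J0 := by
  have hj0 : (a0 * t lb6) ∈ J0 := Or.inr rfl
  induction he using Subgroup.closure_induction with
  | mem y hy =>
    rcases gens_cases hy with rfl | rfl | ⟨x, hx, rfl⟩
    · rw [τ_a0, inv_eq_of_mul_eq_one_left Pair.a0_sq, comm_a0_b0.symm.eq]
      exact hj0
    · rw [τ_b0, inv_eq_of_mul_eq_one_left Pair.b0_sq]
      exact hj0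
    · exact τ_gg hx
  | one => simp [J0, one_mem]
  | mul a b ha' hb' ha hb =>
    have e1 : τ (a * b) * (a * b)⁻¹ = τ a * (τ b * b⁻¹) * a⁻¹ := by
      rw [map_mul]
      group
    rw [e1]
    have hc := J0_central hb (E2_le_K0 ha')
    have e2 : τ a * (τ b * b⁻¹) * a⁻¹ = (τ a * a⁻¹) * (τ b * b⁻¹) := by
      have e3 : (τ b * b⁻¹) * a⁻¹ = a⁻¹ * (τ b * b⁻¹) := by
        have := J0_central hb (inv_mem (E2_le_K0 ha'))
        exact this.eq
      rw [mul_assoc, e3, ← mul_assoc]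
    rw [e2]
    exact mul_mem ha hb
  | inv a ha' ha =>
    have e1 : τ a⁻¹ * a⁻¹⁻¹ = (τ a)⁻¹ * a := by
      rw [map_inv, inv_inv]
    rw [e1]
    have hc := J0_central ha (E2_le_K0 ha')
    have e2 : (τ a)⁻¹ * a = a⁻¹ * (τ a * a⁻¹)⁻¹ * a := by group
    have e3 : a⁻¹ * (τ a * a⁻¹)⁻¹ * a = (τ a * a⁻¹)⁻¹ := by
      have hc2 := J0_central (inv_mem ha) (E2_le_K0 ha')
      rw [mul_assoc, hc2.eq, ← mul_assoc, inv_mul_cancel, one_mul]
    rw [e2, e3]
    exact inv_mem ha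

theorem τ_E {e : G0} (he : e ∈ EE) : τ e * e⁻¹ ∈ J0 := τ_E2 (by rw [E2_eq]; exact he)

/-! ### The order of the kernel -/

/-- The inner part of the kernel. -/
noncomputable def NE : Subgroup (MulAut G0) := EE.map (MulAut.conj (G := G0))

theorem card_NE : Nat.card NE = 1024 := by
  rw [NE, Subgroup.card_map_of_injective, Pair.card_EE]
  intro a b h
  exact conj_inj h

theorem mem_NE {x : MulAut G0} : x ∈ NE ↔ ∃ e ∈ EE, x = MulAut.conj e := by
  constructor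
  · rintro ⟨e, he, rfl⟩
    exact ⟨e, he, rfl⟩
  · rintro ⟨e, he, rfl⟩
    exact ⟨e, he, rfl⟩

theorem NE_le_Q : NE ≤ Q := by
  rintro _ ⟨e, he, rfl⟩
  exact conj_mem_Q he

theorem card_Q : Nat.card Q = 2048 := by
  have h2 : (NE.subgroupOf Q).index = 2 := by
    rw [Subgroup.index_eq_two_iff]
    refine ⟨⟨τ, τ_mem_Q⟩, ?_⟩
    rintro ⟨b, hb⟩
    obtain ⟨e, he, rfl | rfl⟩ := Q_dich hb
    · right
      refine ⟨mem_NE.2 ⟨e, he, rfl⟩, ?_⟩
      intro h
      obtain ⟨e', -, h'⟩ := mem_NE.1 (Subgroup.mem_subgroupOf.1 h)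
      apply τ_outer (e⁻¹ * e')
      rw [map_mul, map_inv, ← h']
      show (MulAut.conj e)⁻¹ * (MulAut.conj e * τ) = τ
      group
    · left
      refine ⟨?_, ?_⟩
      · apply Subgroup.mem_subgroupOf.2
        show MulAut.conj e * τ * τ ∈ NE
        rw [mul_assoc, τ_sq, mul_one]
        exact mem_NE.2 ⟨e, he, rfl⟩
      · intro h
        obtain ⟨e', -, h'⟩ := mem_NE.1 (Subgroup.mem_subgroupOf.1 h)
        apply τ_outer (e⁻¹ * e')
        rw [map_mul, map_inv, ← h']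
        show (MulAut.conj e)⁻¹ * (MulAut.conj e * τ) = τ
        group
  have h1 : Nat.card ↥(NE.subgroupOf Q) = 1024 := by
    rw [← card_NE]
    exact Nat.card_congr (Subgroup.subgroupOfEquivOfLe NE_le_Q).toEquiv
  have h3 := Subgroup.card_mul_index (NE.subgroupOf Q)
  rw [h1, h2] at h3
  omega

end Cfsg.Agent.Lib.Fischer.M22.AutPair
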