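/-
The kernel `Q` is extraspecial, self-centralizing modulo its centre, and normalizes no non-trivial subgroup of odd order.
-/
import Mathlib
import Cfsg.Agent.Lib.Fischer.M22.AutPair.Q
import Cfsg.Agent.Lib.Fischer.M22.AutPair.OddK

set_option autoImplicit false
set_option linter.unusedSectionVars false
set_option linter.unusedSimpArgs false
set_option linter.unusedVariables false
set_option maxRecDepth 100000

namespace Cfsg.Agent.Lib.Fischer.M22.AutPair

open Cfsg Cfsg.Agent.Lib.Fischer.Basic Cfsg.Agent.Lib.Fischer.Local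
open Cfsg.Agent.Lib.Fischer.M22.Model Cfsg.Agent.Lib.Fischer.M22.Bridge
open Cfsg.Agent.Lib.Fischer.M22.Explicit
open Cfsg.Agent.Lib.Compute.ToddCoxeterCore Cfsg.Agent.Lib.Compute.TCChain
open Cfsg.Agent.Lib.Fischer.M22.Rows (tv tv_spec)
open Cfsg.Agent.Lib.Fischer.M22.Rows.Out (piv s0 s0_outer aut_conj conj_inj)
open Cfsg.Agent.Lib.Fischer.M22.Pair (AA AA_PP AA_iff cl C0 K0 mem_K0 EE V0 J0 E2 E2_eq gg gv gg_val chkA same T_same mem_EE EE_le_C0 lab lab_val
  pairs pairs_spec gg_inv gensL gens_cases t_val twin_mem a0_mem_EE b0_mem_EE comm_a0_b0 mem_V0 mem_V0_of_fix mem_J0_of V0_central J0_central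
  J0_le_V0 V0_le_EE E2_le_K0 center_EE cmJ_all sqJ_all mem_J0 j0 gg_cmJ gg_comm gg_mem_EE cl_comm AA_lab)
open scoped commutatorElement

theorem j_mem_EE : a0 * t lb6 ∈ EE := V0_le_EE (mem_V0.2 (by simp))

theorem J_mem_Q : J ∈ Q := conj_mem_Q j_mem_EE

theorem Q_comm_J {x : MulAut G0} (hx : x ∈ Q) : x * J = J * x :=
  Subgroup.mem_centralizer_singleton_iff.1 (Q_le_CA hx)

theorem a0_ne_b0 : a0 ≠ t lb6 := by
  intro h
  rw [← t_pt0] at h
  have := congrArg Fin.val (t_inj h)
  exact absurd this (by decide)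

theorem J_ne_one : J ≠ 1 := by
  intro h
  have h1 : a0 * t lb6 = 1 := conj_inj (h.trans (map_one _).symm)
  apply a0_ne_b0
  have h2 : a0 = (t lb6)⁻¹ := eq_inv_of_mul_eq_one_left h1
  rw [h2]
  exact inv_eq_of_mul_eq_one_left Pair.b0_sq

theorem j_sq : a0 * t lb6 * (a0 * t lb6) = 1 := Pair.j0_sq

theorem J_sq : J * J = 1 := by
  unfold J
  rw [← map_mul, j_sq, map_one]

theorem EE_a {e : G0} (he : e ∈ EE) : e * a0 * e⁻¹ = a0 := by
  rw [(mem_K0.1 (EE_le_K0 he)).1.eq]
  group

theorem EE_b {e : G0} (he : e ∈ EE) : e * t lb6 * e⁻¹ = t lb6 := by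
  rw [(mem_K0.1 (EE_le_K0 he)).2.eq]
  group

theorem fix_of_comm {x : MulAut G0} {g : G0} (h : MulAut.conj g * x = x * MulAut.conj g) : x g = g := by
  apply conj_inj
  rw [aut_conj] at h
  exact (mul_right_cancel h).symm

/-- An element of `Q` commuting with `Q` is central. -/
theorem comm_Q_cases {x : MulAut G0} (hx : x ∈ Q) (hcomm : ∀ q ∈ Q, q * x = x * q) : x = 1 ∨ x = J := by
  obtain ⟨e, he, rfl | rfl⟩ := Q_dich hx
  · have h1 : ∀ y ∈ EE, Commute e y := by
      intro y hy
      have h2 := hcomm _ (conj_mem_Q hy)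
      have h3 : y * e = e * y := by
        apply conj_inj
        rw [map_mul, map_mul]
        exact h2
      exact h3.symm
    have hV := center_EE he h1
    have hτ : τ e = e := fix_of_comm (hcomm _ τ_mem_Q).symm
    rcases mem_V0.1 hV with rfl | rfl | rfl | rfl
    · exact Or.inl (map_one _)
    · exfalso
      rw [τ_a0] at hτ
      exact a0_ne_b0 hτ.symm
    · exfalso
      rw [τ_b0] at hτ
      exact a0_ne_b0 hτ
    · exact Or.inr rfl
  · exfalso
    have h1 : (MulAut.conj e * τ) a0 = a0 := fix_of_comm (hcomm _ (conj_mem_Q a0_mem_EE))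
    have h2 : (MulAut.conj e * τ) a0 = e * τ a0 * e⁻¹ := rfl
    rw [h2, τ_a0, EE_b he] at h1
    exact a0_ne_b0 h1.symm

/-- The central involution of `Q`. -/
noncomputable def zQ : ↥Q := ⟨J, J_mem_Q⟩

theorem zQ_ne : zQ ≠ 1 := fun h => J_ne_one (congrArg Subtype.val h)

theorem center_iff (x : ↥Q) : x ∈ Subgroup.center ↥Q ↔ x = 1 ∨ x = zQ := by
  constructor
  · intro hx
    have h1 : ∀ q ∈ Q, q * x.1 = x.1 * q := fun q hq =>
      congrArg Subtype.val (Subgroup.mem_center_iff.1 hx ⟨q, hq⟩)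
    rcases comm_Q_cases x.2 h1 with h | h
    · exact Or.inl (Subtype.ext h)
    · exact Or.inr (Subtype.ext h)
  · rintro (rfl | rfl)
    · exact one_mem _
    · rw [Subgroup.mem_center_iff]
      intro g
      exact Subtype.ext (Q_comm_J g.2)

theorem J0_mul {a b : G0} (ha : a ∈ J0) (hb : b ∈ J0) : a * b ∈ J0 := mul_mem ha hb

theorem conj_J0 {v : G0} (hv : v ∈ J0) : MulAut.conj v = 1 ∨ MulAut.conj v = J := by
  rcases hv with rfl | rfl
  · exact Or.inl (map_one _)
  · exact Or.inr rfl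

theorem sq_Q {x : MulAut G0} (hx : x ∈ Q) : x * x = 1 ∨ x * x = J := by
  obtain ⟨e, he, rfl | rfl⟩ := Q_dich hx
  · have h := sqJ_all (x := e) (by rw [E2_eq]; exact he)
    rw [pow_two] at h
    rw [← map_mul]
    exact conj_J0 h
  · have hv := τ_E he
    have e1 : MulAut.conj e * τ * (MulAut.conj e * τ) = MulAut.conj (e * τ e) := by
      have e2 : τ * MulAut.conj e = MulAut.conj (τ e) * τ := aut_conj τ e
      calc MulAut.conj e * τ * (MulAut.conj e * τ) = MulAut.conj e * (τ * MulAut.conj e) * τ := by group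
        _ = MulAut.conj e * (MulAut.conj (τ e) * τ) * τ := by rw [e2]
        _ = MulAut.conj e * MulAut.conj (τ e) * (τ * τ) := by group
        _ = _ := by rw [τ_sq, mul_one, map_mul]
    rw [e1]
    apply conj_J0
    have e3 : e * τ e = (τ e * e⁻¹) * (e * e) := by
      have hc := J0_central hv (EE_le_K0 he)
      calc e * τ e = e * ((τ e * e⁻¹) * e) := by group
        _ = e * (e * (τ e * e⁻¹)) := by rw [hc.eq]
        _ = (e * e) * (τ e * e⁻¹) := by group
        _ = (τ e * e⁻¹) * (e * e) := by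
          have hc2 := J0_central hv (mul_mem (EE_le_K0 he) (EE_le_K0 he))
          exact hc2.symm.eq
    rw [e3]
    have h := sqJ_all (x := e) (by rw [E2_eq]; exact he)
    rw [pow_two] at h
    exact mul_mem hv h

/-- Squares in a central subgroup of order two force the commutators in it. -/
theorem comm_of_sq {X : Type*} [Group X] {z : X} (hz2 : z * z = 1) (hzc : ∀ x : X, x * z = z * x)
    (hsq : ∀ x : X, x * x = 1 ∨ x * x = z) (x y : X) : x * y * x⁻¹ * y⁻¹ = 1 ∨ x * y * x⁻¹ * y⁻¹ = z := by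
  have hzi : z⁻¹ = z := inv_eq_of_mul_eq_one_left hz2
  have hci : ∀ w : X, (w * w = 1 ∨ w * w = z) → ∀ v : X, v * (w * w)⁻¹ = (w * w)⁻¹ * v := by
    intro w hw v
    rcases hw with h | h
    · simp [h]
    · rw [h, hzi]
      exact hzc v
  have e : x * y * x⁻¹ * y⁻¹ = (x * y) * (x * y) * (x * x)⁻¹ * (y * y)⁻¹ := by
    have e1 : x⁻¹ = x * (x * x)⁻¹ := by group
    have e2 : y⁻¹ = y * (y * y)⁻¹ := by group
    calc x * y * x⁻¹ * y⁻¹ = x * y * (x * (x * x)⁻¹) * (y * (y * y)⁻¹) := by rw [← e1, ← e2]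
      _ = x * y * x * ((x * x)⁻¹ * y) * (y * y)⁻¹ := by group
      _ = x * y * x * (y * (x * x)⁻¹) * (y * y)⁻¹ := by rw [hci x (hsq x) y]
      _ = _ := by group
  rw [e]
  rcases hsq (x * y) with h1 | h1 <;> rcases hsq x with h2 | h2 <;> rcases hsq y with h3 | h3 <;>
    simp [h1, h2, h3, hzi, hz2]

theorem card_two_pow : Nat.card ↥Q = 2 ^ 11 := by rw [card_Q]; norm_num

theorem isP_Q : IsPGroup 2 ↥Q := IsPGroup.of_card (n := 11) card_two_pow

/-! ### The relations between some elements of the kernel -/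

theorem cm_val {x y : ℕ × ℕ} (hx : x ∈ pairs) (hy : y ∈ pairs) (r : Fin NN) :
    ((φ (gg x * gg y * (gg x)⁻¹ * (gg y)⁻¹) r : Fin NN) : ℕ) = gv x (gv y (gv x.swap (gv y.swap r))) := by
  obtain ⟨-, -, x1, x2, -⟩ := pairs_spec hx
  obtain ⟨-, -, y1, y2, -⟩ := pairs_spec hy
  rw [gg_inv, gg_inv]
  simp only [map_mul, Equiv.Perm.coe_mul, Function.comp_apply]
  rw [gg_val x1 x2, gg_val y1 y2, gg_val x2 x1, gg_val y2 y1]

theorem j0_moves : ((φ (a0 * t lb6) (lab 5) : Fin NN) : ℕ) ≠ 5 := by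
  have h1 : ((φ (a0 * t lb6) (lab 5) : Fin NN) : ℕ) = tv 0 (tv 6 5) := by
    simp only [map_mul, Equiv.Perm.coe_mul, Function.comp_apply]
    rw [Pair.a0_lab, Pair.b0_lab]
    rfl
  rw [h1, Pair.t_5.2.1]
  exact Pair.t_5.1

theorem cm_one {x y : ℕ × ℕ} (hx : x ∈ pairs) (hy : y ∈ pairs)
    (h : Nat.beq (gv x (gv y (gv x.swap (gv y.swap 5)))) 5 = true) : gg x * gg y * (gg x)⁻¹ * (gg y)⁻¹ = 1 := by
  rcases gg_cmJ hx hy with h1 | h1
  · exact h1
  · exfalso
    have h2 := cm_val hx hy (lab 5)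
    rw [h1] at h2
    apply j0_moves
    have h3 := Nat.eq_of_beq_eq_true h
    rw [show ((lab 5 : Fin NN) : ℕ) = 5 from rfl, h3] at h2
    exact h2

theorem cm_j {x y : ℕ × ℕ} (hx : x ∈ pairs) (hy : y ∈ pairs)
    (h : Nat.beq (gv x (gv y (gv x.swap (gv y.swap 5)))) 5 = false) : gg x * gg y * (gg x)⁻¹ * (gg y)⁻¹ = a0 * t lb6 := by
  rcases gg_cmJ hx hy with h1 | h1
  · exfalso
    have h2 := cm_val hx hy (lab 5)
    rw [h1] at h2
    have h3 : ((φ (1 : G0) (lab 5) : Fin NN) : ℕ) = 5 := by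
      rw [map_one]
      rfl
    rw [h3] at h2
    have h4 : gv x (gv y (gv x.swap (gv y.swap 5))) = 5 := h2.symm
    rw [h4] at h
    exact absurd h (by decide)
  · exact h1

/-- The inner automorphism of a generator. -/
noncomputable def X (x : ℕ × ℕ) : MulAut G0 := MulAut.conj (gg x)

theorem X_mem {x : ℕ × ℕ} (hx : x ∈ pairs) : X x ∈ Q := conj_mem_Q (gg_mem_EE hx)

theorem X_sq {x : ℕ × ℕ} (hx : x ∈ pairs) : X x * X x = 1 := by
  unfold X
  rw [← map_mul, gg_comm hx, map_one]

theorem X_cm {x y : ℕ × ℕ} : X x * X y * (X x)⁻¹ * (X y)⁻¹ = MulAut.conj (gg x * gg y * (gg x)⁻¹ * (gg y)⁻¹) := by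
  unfold X
  simp only [map_mul, map_inv]

theorem X_j {x y : ℕ × ℕ} (hx : x ∈ pairs) (hy : y ∈ pairs)
    (h : Nat.beq (gv x (gv y (gv x.swap (gv y.swap 5)))) 5 = false) : X x * X y * (X x)⁻¹ * (X y)⁻¹ = J := by
  rw [X_cm, cm_j hx hy h]
  rfl

theorem X_c {x y : ℕ × ℕ} (hx : x ∈ pairs) (hy : y ∈ pairs)
    (h : Nat.beq (gv x (gv y (gv x.swap (gv y.swap 5)))) 5 = true) : X x * X y = X y * X x := by
  have h1 : X x * X y * (X x)⁻¹ * (X y)⁻¹ = 1 := by
    rw [X_cm, cm_one hx hy h, map_one]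
  have h2 := mul_inv_eq_one.1 h1
  calc X x * X y = X x * X y * (X x)⁻¹ * X x := by group
    _ = X y * X x := by rw [h2]

/-- **`Q` is extraspecial.** -/
theorem extra_Q : IsExtraspecial 2 ↥Q := by
  have hsq : ∀ x : ↥Q, x * x = 1 ∨ x * x = zQ := by
    intro x
    rcases sq_Q x.2 with h | h
    · exact Or.inl (Subtype.ext h)
    · exact Or.inr (Subtype.ext h)
  have hz2 : zQ * zQ = 1 := Subtype.ext J_sq
  have hzc : ∀ x : ↥Q, x * zQ = zQ * x := fun x => Subtype.ext (Q_comm_J x.2)
  have hcomm : ∀ x y : ↥Q, ⁅x, y⁆ = 1 ∨ ⁅x, y⁆ = zQ := by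
    intro x y
    rw [commutatorElement_def]
    exact comm_of_sq hz2 hzc hsq x y
  refine Cfsg.Agent.Lib.PGroup.ExtraMk.isExtraspecial_of isP_Q zQ zQ_ne center_iff hcomm ?_ ?_
  · intro x
    rw [pow_two]
    exact hsq x
  · refine ⟨⟨X (40, 154), X_mem (by decide)⟩, ⟨X (88, 3103), X_mem (by decide)⟩, ?_⟩
    rw [commutatorElement_def]
    apply Subtype.ext
    exact X_j (by decide) (by decide) (by decide +kernel)

/-! ### The centralizer -/

/-- The table of twins. -/
noncomputable def twv (u : ℕ) : ℕ := Nat.land (Nat.shiftRight twT (Nat.mul u (nat_lit 12))) (nat_lit 4095)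

theorem tw_chk : allFrom (fun u => !(chkA u) || (chkA (twv u) && same (code u) (code (twv u)) && !(Nat.beq u (twv u)))) (nat_lit 3510) (nat_lit 0) = true := by
  decide +kernel

theorem exists_twin {p : Fin NN} (h : AA p) : ∃ q, AA q ∧ cl p = cl q ∧ p ≠ q := by
  have h1 := allFrom_spec tw_chk p (Nat.zero_le _) (by show (p : ℕ) < 0 + 3510; rw [zero_add]; exact p.2)
  rw [chkA_of h] at h1
  simp only [Bool.not_true, Bool.false_or, Bool.and_eq_true, Bool.not_eq_true'] at h1
  obtain ⟨⟨h2, h3⟩, h4⟩ := h1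
  obtain ⟨a1, a2⟩ := AA_lab h2
  refine ⟨lab (twv p), a1, ?_, ?_⟩
  · have := T_same (AA_PP h) h3
    show Pair.U4.T (Pair.w (code p)) = Pair.U4.T (Pair.w (code ((lab (twv p) : Fin NN) : ℕ)))
    rw [lab_val a2]
    exact this.symm
  · intro e
    have e2 : (p : ℕ) = twv p := (congrArg Fin.val e).trans (lab_val a2)
    rw [← e2, Nat.beq_refl] at h4
    cases h4

/-- An automorphism centralizing the inner part fixes the classes. -/
theorem cl_of_comm {x : MulAut G0} (hx : ∀ e ∈ EE, x e = e) {r : Fin NN} (hr : AA r) : cl (pA x r) = cl r := by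
  obtain ⟨q, hq, cq, nq⟩ := exists_twin hr
  have hcq : Commute (t r) (t q) := by
    rw [← cl_comm hr hq, ← cq]
  have hc := hx _ (twin_mem hr hq cq)
  have e : t (pA x r) * t (pA x q) = t r * t q := by
    rw [← pA_spec, ← pA_spec, ← map_mul]
    exact hc
  have l1 : PMl D0 2 (t r * t q) [t r, t q] := by
    refine ⟨?_, rfl, ?_, ?_, by simp⟩
    · simp only [List.nodup_cons, List.mem_singleton, List.not_mem_nil, not_false_eq_true, List.nodup_nil, and_self,
        and_true]
      exact fun k => nq (t_inj k)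
    · intro a ha
      simp only [List.mem_cons, List.not_mem_nil, or_false] at ha
      rcases ha with rfl | rfl <;> exact t_mem _
    · intro a ha b hb
      simp only [List.mem_cons, List.not_mem_nil, or_false] at ha hb
      rcases ha with rfl | rfl <;> rcases hb with rfl | rfl
      · exact Commute.refl _
      · exact hcq
      · exact hcq.symm
      · exact Commute.refl _
  have l2 : PMl D0 2 (t r * t q) [t (pA x r), t (pA x q)] := by
    refine ⟨?_, rfl, ?_, ?_, by simpa using e⟩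
    · simp only [List.nodup_cons, List.mem_singleton, List.not_mem_nil, not_false_eq_true, List.nodup_nil, and_self,
        and_true]
      intro k
      apply nq
      have k2 := t_inj k
      have k3 := congrArg (pA x⁻¹) k2
      rw [← pA_mul, ← pA_mul, inv_mul_cancel, pA_one, pA_one] at k3
      exact k3
    · intro a ha
      simp only [List.mem_cons, List.not_mem_nil, or_false] at ha
      rcases ha with rfl | rfl <;> exact t_mem _
    · intro a ha b hb
      have hcq' : Commute (t (pA x r)) (t (pA x q)) := comm_pA.2 hcq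
      simp only [List.mem_cons, List.not_mem_nil, or_false] at ha hb
      rcases ha with rfl | rfl <;> rcases hb with rfl | rfl
      · exact Commute.refl _
      · exact hcq'
      · exact hcq'.symm
      · exact Commute.refl _
  have h3 := (fp2_0 _ _ _ l2 l1 (t (pA x r))).1 (by simp)
  simp only [List.mem_cons, List.not_mem_nil, or_false] at h3
  rcases h3 with h3 | h3
  · rw [t_inj h3]
  · rw [t_inj h3]
    exact cq.symm

/-- An automorphism commuting with `Q` lies in `Q`. -/
theorem mem_Q_of_comm {x : MulAut G0} (hx : ∀ q ∈ Q, q * x = x * q) : x ∈ Q := by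
  have hCA : x ∈ CA := Subgroup.mem_centralizer_singleton_iff.2 (hx J J_mem_Q).symm
  refine mem_Q.2 ⟨hCA, autA_eq_one _ fun p hp => ?_⟩
  apply cl_of_comm _ hp
  intro e he
  exact fix_of_comm (hx _ (conj_mem_Q he))

theorem centralizer_Q : Subgroup.centralizer (Q : Set (MulAut G0)) = (Subgroup.center ↥Q).map Q.subtype := by
  ext x
  rw [Subgroup.mem_centralizer_iff]
  constructor
  · intro hx
    have h1 : ∀ q ∈ Q, q * x = x * q := fun q hq => hx q hq
    have h2 := mem_Q_of_comm h1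
    have h3 : (⟨x, h2⟩ : ↥Q) ∈ Subgroup.center ↥Q := Subgroup.mem_center_iff.2 fun g => Subtype.ext (h1 g.1 g.2)
    exact ⟨⟨x, h2⟩, h3, rfl⟩
  · rintro ⟨y, hy, rfl⟩ q hq
    exact congrArg Subtype.val (Subgroup.mem_center_iff.1 hy ⟨q, hq⟩)

theorem mem_center_map {x : MulAut G0} : x ∈ (Subgroup.center ↥Q).map Q.subtype ↔ x = 1 ∨ x = J := by
  constructor
  · rintro ⟨y, hy, rfl⟩
    rcases (center_iff y).1 hy with rfl | rfl
    · exact Or.inl rfl
    · exact Or.inr rfl
  · rintro (rfl | rfl)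
    · exact one_mem _
    · exact ⟨zQ, (center_iff _).2 (Or.inr rfl), rfl⟩

theorem normal_Q : Subgroup.centralizer (((Subgroup.center ↥Q).map Q.subtype : Subgroup (MulAut G0)) : Set (MulAut G0)) ≤
    Subgroup.normalizer (Q : Set (MulAut G0)) := by
  intro x hx
  have h1 : x ∈ CA := by
    apply Subgroup.mem_centralizer_singleton_iff.2
    have := Subgroup.mem_centralizer_iff.1 hx J (mem_center_map.2 (Or.inr rfl))
    exact this.symm
  rw [Subgroup.mem_normalizer_iff]
  intro h
  constructor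
  · exact Q_normal h1
  · intro hh
    have := Q_normal (inv_mem h1) hh
    have e : x⁻¹ * (x * h * x⁻¹) * x⁻¹⁻¹ = h := by group
    rwa [e] at this

/-! ### Subgroups of odd order -/

theorem bound_aut : ∀ m : ℕ, Odd m → 1 < m → ¬ m ^ 16 ∣ Nat.card (MulAut G0) := by
  intro m hm h1 hd
  rw [Rows.Out.card_aut, card0] at hd
  have e : 2 * (64561751654400 : ℕ) = 2 ^ 18 * 492567075 := by norm_num
  rw [e] at hd
  have hc : (m ^ 16).Coprime (2 ^ 18) := Nat.Coprime.pow _ _ (Nat.coprime_two_right.2 hm)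
  have hd2 : m ^ 16 ∣ 492567075 := hc.dvd_of_dvd_mul_left hd
  have hle := Nat.le_of_dvd (by norm_num) hd2
  have hm4 : m < 4 := by
    by_contra hcon
    have : 4 ^ 16 ≤ m ^ 16 := Nat.pow_le_pow_left (by omega) 16
    omega
  have hm3 : m = 3 := by
    rcases hm with ⟨k, rfl⟩
    omega
  subst hm3
  exact absurd hd2 (by norm_num)

theorem odd_Q (K : Subgroup (MulAut G0)) (hK : Odd (Nat.card K)) (hQK : Q ≤ Subgroup.normalizer (K : Set (MulAut G0))) :
    K = ⊥ := by
  refine OddK.main_odd (Q := Q) (z := J) J_sq (fun q hq => Q_comm_J hq) isP_Q ?_ J_mem_Q ?_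
    (x1 := X (40, 154)) (x2 := X (40, 3399)) (x3 := X (43, 424)) (x4 := X (43, 434))
    (y1 := X (88, 3103)) (y2 := X (88, 89)) (y3 := X (392, 1525)) (y4 := X (392, 542))
    (X_mem (by decide)) (X_mem (by decide)) (X_mem (by decide)) (X_mem (by decide))
    (X_mem (by decide)) (X_mem (by decide)) (X_mem (by decide)) (X_mem (by decide))
    (X_sq (by decide)) (X_sq (by decide)) (X_sq (by decide)) (X_sq (by decide))
    (X_j (by decide) (by decide) (by decide +kernel)) (X_j (by decide) (by decide) (by decide +kernel))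
    (X_j (by decide) (by decide) (by decide +kernel)) (X_j (by decide) (by decide) (by decide +kernel))
    (X_c (by decide) (by decide) (by decide +kernel)) (X_c (by decide) (by decide) (by decide +kernel))
    (X_c (by decide) (by decide) (by decide +kernel)) (X_c (by decide) (by decide) (by decide +kernel))
    (X_c (by decide) (by decide) (by decide +kernel)) (X_c (by decide) (by decide) (by decide +kernel))
    (X_c (by decide) (by decide) (by decide +kernel)) (X_c (by decide) (by decide) (by decide +kernel))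
    (X_c (by decide) (by decide) (by decide +kernel)) (X_c (by decide) (by decide) (by decide +kernel))
    (X_c (by decide) (by decide) (by decide +kernel)) (X_c (by decide) (by decide) (by decide +kernel))
    bound_aut K hK hQK
  · intro c hc q hq
    exact Q_normal (Subgroup.mem_centralizer_singleton_iff.2 hc) hq
  · intro c hc
    have h2 := mem_Q_of_comm hc
    exact comm_Q_cases h2 hc

/-- **`Q` is a large extraspecial subgroup.** -/
theorem large_Q : IsLargeExtraspecial Q := ⟨extra_Q, centralizer_Q, normal_Q, odd_Q⟩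

end Cfsg.Agent.Lib.Fischer.M22.AutPair
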