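/-
The generalized Fitting subgroup of the centralizer of the product of two commuting transpositions in the automorphism
group, and the transport of its structure along an isomorphism.
-/
import Mathlib
import Cfsg.Agent.Lib.Fischer.M22.AutPair.Extra
import Cfsg.Agent.Lib.Components.Transport

set_option autoImplicit false
set_option linter.unusedSectionVars false
set_option linter.unusedSimpArgs false
set_option linter.unusedVariables false
set_option maxRecDepth 100000

namespace Cfsg.Agent.Lib.Fischer.M22.AutPair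

open Cfsg Cfsg.Agent.Lib.Fischer.Basic Cfsg.Agent.Lib.Fischer.Local
open Cfsg.Agent.Lib.Fischer.M22.Model Cfsg.Agent.Lib.Fischer.M22.Bridge
open Cfsg.Agent.Lib.Fischer.M22.Explicit
open scoped commutatorElement

/-! ### The generalized Fitting subgroup -/

/-- The kernel in the centralizer. -/
noncomputable abbrev kerY : Subgroup ↥CA := autA.ker

theorem card_kerY : Nat.card ↥kerY = 2048 := by
  rw [← card_Q, Q, Subgroup.card_map_of_injective CA.subtype_injective]

theorem kerY_two : IsPGroup 2 ↥kerY := IsPGroup.of_card (n := 11) (by rw [card_kerY]; norm_num)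

theorem kerY_nil : Group.IsNilpotent ↥kerY := by
  haveI : Fact (Nat.Prime 2) := ⟨Nat.prime_two⟩
  exact kerY_two.isNilpotent

theorem kerY_le_fitting : kerY ≤ fittingSubgroup ↥CA := le_sSup ⟨inferInstance, kerY_nil⟩

theorem fitting_le_kerY : fittingSubgroup ↥CA ≤ kerY := by
  apply sSup_le
  rintro N ⟨hN, hnil⟩
  have h1 : (N.map autA).Normal := hN.map _ autA_surj
  have h2 : Group.IsNilpotent ↥(N.map autA) := by
    let g : ↥N →* ↥(N.map autA) := (autA.comp N.subtype).codRestrict _ (fun x => ⟨x.1, x.2, rfl⟩)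
    have hg : Function.Surjective g := by
      rintro ⟨_, x, hx, rfl⟩
      exact ⟨⟨x, hx⟩, rfl⟩
    exact nilpotent_of_surjective g hg
  have h3 := Pair.normal_nilpotent_bot h1 h2
  intro x hx
  have h4 : autA x ∈ N.map autA := ⟨x, hx, rfl⟩
  rw [h3, Subgroup.mem_bot] at h4
  exact h4

theorem mem_kerY_iff {x : ↥CA} : x ∈ kerY ↔ x.1 ∈ Q := by
  constructor
  · intro h
    exact mem_Q.2 ⟨x.2, h⟩
  · intro h
    obtain ⟨h1, h2⟩ := mem_Q.1 h
    exact h2

theorem centralizer_le_kerY : Subgroup.centralizer (kerY : Set ↥CA) ≤ kerY := by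
  intro x hx
  rw [mem_kerY_iff]
  apply mem_Q_of_comm
  intro q hq
  obtain ⟨h1, h2⟩ := mem_Q.1 hq
  have h3 := Subgroup.mem_centralizer_iff.1 hx ⟨q, h1⟩ h2
  exact congrArg Subtype.val h3

/-- **The generalized Fitting subgroup of the centralizer is the kernel.** -/
theorem fstar_eq : generalizedFittingSubgroup ↥CA = kerY := by
  apply le_antisymm
  · refine sup_le ?_ fitting_le_kerY
    refine le_trans ?_ centralizer_le_kerY
    rw [← Subgroup.commutator_eq_bot_iff_le_centralizer]
    haveI : Fact (Nat.Prime 2) := ⟨Nat.prime_two⟩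
    haveI := kerY_nil
    exact Cfsg.Agent.Lib.Components.Layer.commutator_layer_eq_bot_of_isSolvable inferInstance inferInstance
  · exact kerY_le_fitting.trans le_sup_right

theorem fstar_map_eq : (generalizedFittingSubgroup ↥CA).map CA.subtype = Q := by
  rw [fstar_eq]
  rfl

/-- The statement for a subgroup and a candidate. -/
def ConclQ {A : Type*} [Group A] (C Q : Subgroup A) : Prop :=
  IsLargeExtraspecial Q ∧ Nat.card Q = 2 ^ 11 ∧ Q ≤ C ∧
    ∃ (_ : (Q.subgroupOf C).Normal) (F : Type) (_ : Field F) (_ : Fintype F), Fintype.card F = 4 ∧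
      Nonempty (↥C ⧸ Q.subgroupOf C ≃* MulAut (Cfsg.PSU 4 F 2))

theorem conclQ0 : ConclQ CA Q := by
  refine ⟨large_Q, card_two_pow, Q_le_CA, ?_⟩
  have e : Q.subgroupOf CA = autA.ker := Subgroup.comap_map_eq_self_of_injective CA.subtype_injective _
  have hn : (Q.subgroupOf CA).Normal := by
    rw [e]
    infer_instance
  refine ⟨hn, Cfsg.Agent.Lib.Compute.GF4.F4, inferInstance, inferInstance, rfl, ⟨?_⟩⟩
  exact (QuotientGroup.quotientMulEquivOfEq e).trans (QuotientGroup.quotientKerEquivOfSurjective autA autA_surj)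

/-! ### Transport -/

/-- Extraspecial groups are invariant under isomorphisms. -/
theorem isExtraspecial_of_equiv {A B : Type*} [Group A] [Group B] (e : A ≃* B)
    (h : Cfsg.IsExtraspecial 2 A) : Cfsg.IsExtraspecial 2 B := by
  have hf : ∀ x : B, x ∈ frattini B ↔ e.symm x ∈ frattini A := by
    intro x
    constructor
    · intro hx
      exact frattini_le_comap_frattini_of_surjective (φ := e.symm.toMonoidHom) e.symm.surjective hx
    · intro hx
      have := frattini_le_comap_frattini_of_surjective (φ := e.toMonoidHom) e.surjective hx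
      simpa using this
  have hz : ∀ x : B, x ∈ Subgroup.center B ↔ e.symm x ∈ Subgroup.center A := by
    intro x
    simp only [Subgroup.mem_center_iff]
    constructor
    · intro hx y
      apply e.injective
      simpa using hx (e y)
    · intro hx y
      apply e.symm.injective
      simpa using hx (e.symm y)
  have hc : ∀ x : B, x ∈ commutator B ↔ e.symm x ∈ commutator A := by
    have h1 : (commutator A).map e.toMonoidHom = commutator B := by
      rw [commutator_def, commutator_def, Subgroup.map_commutator, Subgroup.map_top_of_surjective _ e.surjective]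
    intro x
    rw [← h1]
    constructor
    · rintro ⟨y, hy, rfl⟩
      simpa using hy
    · intro hx
      exact ⟨e.symm x, hx, by simp⟩
  refine ⟨⟨?_, ?_, ?_⟩, ?_⟩
  · exact h.1.1.of_equiv e
  · ext x
    rw [hf, hz, h.1.2.1]
  · ext x
    rw [hc, hz, h.1.2.2]
  · rw [← h.2]
    refine Nat.card_congr ⟨fun x => ⟨e.symm x.1, (hz _).1 x.2⟩, fun x => ⟨e x.1, ?_⟩, ?_, ?_⟩
    · rw [hz]; simpa using x.2
    · intro x; simp
    · intro x; simp

section
variable {A A' : Type*} [Group A] [Group A'] (f : A ≃* A')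

theorem mem_map_f {S : Subgroup A} {x : A} : f x ∈ S.map f.toMonoidHom ↔ x ∈ S := by
  constructor
  · rintro ⟨y, hy, e⟩
    rwa [← f.injective e]
  · intro hx
    exact ⟨x, hx, rfl⟩

theorem mem_cen_map {Q : Subgroup A} {x : A} :
    f x ∈ Subgroup.centralizer ((Q.map f.toMonoidHom : Subgroup A') : Set A') ↔ x ∈ Subgroup.centralizer (Q : Set A) := by
  rw [Subgroup.mem_centralizer_iff, Subgroup.mem_centralizer_iff]
  constructor
  · intro h y hy
    apply f.injective
    rw [map_mul, map_mul]
    exact h (f y) ⟨y, hy, rfl⟩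
  · rintro h _ ⟨y, hy, rfl⟩
    show f y * f x = f x * f y
    rw [← map_mul, ← map_mul, h y hy]

theorem mem_zz_map {Q : Subgroup A} {x : A} :
    f x ∈ (Subgroup.center ↥(Q.map f.toMonoidHom)).map (Q.map f.toMonoidHom).subtype ↔
      x ∈ (Subgroup.center ↥Q).map Q.subtype := by
  rw [Pair.mem_map_center, Pair.mem_map_center, mem_map_f]
  constructor
  · rintro ⟨h1, h2⟩
    refine ⟨h1, fun y hy => f.injective ?_⟩
    rw [map_mul, map_mul]
    exact h2 (f y) ⟨y, hy, rfl⟩
  · rintro ⟨h1, h2⟩
    refine ⟨h1, ?_⟩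
    rintro _ ⟨y, hy, rfl⟩
    show f y * f x = f x * f y
    rw [← map_mul, ← map_mul, h2 y hy]

theorem large_map {Q : Subgroup A} (h : IsLargeExtraspecial (Q.map f.toMonoidHom)) : IsLargeExtraspecial Q := by
  obtain ⟨h1, h2, h3, h4⟩ := h
  refine ⟨isExtraspecial_of_equiv (f.subgroupMap Q).symm h1, ?_, ?_, ?_⟩
  · ext x
    rw [← mem_cen_map f, h2, mem_zz_map]
  · intro x hx
    have h5 : f x ∈ Subgroup.normalizer ((Q.map f.toMonoidHom : Subgroup A') : Set A') := by
      apply h3
      rw [Subgroup.mem_centralizer_iff] at hx ⊢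
      intro y hy
      obtain ⟨w, hw, rfl⟩ := (f.surjective y)
      have hw' := (mem_zz_map f).1 hy
      show f w * f x = f x * f w
      rw [← map_mul, ← map_mul, hx w hw']
    rw [Subgroup.mem_normalizer_iff] at h5 ⊢
    intro y
    have h6 := h5 (f y)
    have e : f x * f y * (f x)⁻¹ = f (x * y * x⁻¹) := by simp
    rw [e, mem_map_f, mem_map_f] at h6
    exact h6
  · intro K hK hQK
    have h5 : K.map f.toMonoidHom = ⊥ := by
      apply h4
      · rw [Subgroup.card_map_of_injective f.injective]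
        exact hK
      · rintro _ ⟨q, hq, rfl⟩
        have h6 := Subgroup.mem_normalizer_iff.1 (hQK hq)
        rw [Subgroup.mem_normalizer_iff]
        intro y
        obtain ⟨w, rfl⟩ := f.surjective y
        have e : f q * f w * (f q)⁻¹ = f (q * w * q⁻¹) := by simp
        show f w ∈ _ ↔ f q * f w * (f q)⁻¹ ∈ _
        rw [e, mem_map_f, mem_map_f]
        exact h6 w
    rw [eq_bot_iff]
    intro x hx
    have h6 : f x ∈ K.map f.toMonoidHom := ⟨x, hx, rfl⟩
    rw [h5, Subgroup.mem_bot] at h6
    rw [Subgroup.mem_bot]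
    exact f.injective (by rw [h6, map_one])

theorem conclQ_map {C Q : Subgroup A} (h : ConclQ (C.map f.toMonoidHom) (Q.map f.toMonoidHom)) : ConclQ C Q := by
  obtain ⟨h1, h2, h3, hn, F, iF, fF, hF, ⟨e⟩⟩ := h
  have eC : ↥C ≃* ↥(C.map f.toMonoidHom) := f.subgroupMap C
  let eC' : ↥C ≃* ↥(C.map f.toMonoidHom) := f.subgroupMap C
  have heC : ∀ x : ↥C, (eC' x).1 = f x.1 := fun x => rfl
  refine ⟨large_map f h1, ?_, fun x hx => (mem_map_f f).1 (h3 ((mem_map_f f).2 hx)), ?_⟩
  · rw [← h2, Subgroup.card_map_of_injective f.injective]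
  · have hm : (Q.subgroupOf C).map eC'.toMonoidHom = (Q.map f.toMonoidHom).subgroupOf (C.map f.toMonoidHom) := by
      ext y
      constructor
      · rintro ⟨x, hx, rfl⟩
        rw [Subgroup.mem_subgroupOf]
        exact (mem_map_f f).2 hx
      · intro hy
        refine ⟨eC'.symm y, ?_, eC'.apply_symm_apply y⟩
        show (eC'.symm y).1 ∈ Q
        apply (mem_map_f f).1
        rw [← heC, eC'.apply_symm_apply]
        exact hy
    have hnQ : (Q.subgroupOf C).Normal := by
      refine ⟨fun n hn' g => ?_⟩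
      rw [Subgroup.mem_subgroupOf] at hn' ⊢
      apply (mem_map_f f).1
      have h5 := hn.conj_mem (eC' n) (by
        rw [Subgroup.mem_subgroupOf]
        exact (mem_map_f f).2 hn') (eC' g)
      rw [Subgroup.mem_subgroupOf] at h5
      have e5 : eC' g * eC' n * (eC' g)⁻¹ = eC' (g * n * g⁻¹) := by simp only [map_mul, map_inv]
      rw [e5, heC] at h5
      exact h5
    refine ⟨hnQ, F, iF, fF, hF, ⟨?_⟩⟩
    exact (QuotientGroup.congr _ _ eC' hm).trans e

theorem fstar_map (C : Subgroup A) (C' : Subgroup A') (h : C.map f.toMonoidHom = C') :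
    ((generalizedFittingSubgroup ↥C).map C.subtype).map f.toMonoidHom = (generalizedFittingSubgroup ↥C').map C'.subtype := by
  subst h
  let e : ↥C ≃* ↥(C.map f.toMonoidHom) := f.subgroupMap C
  have h1 : (generalizedFittingSubgroup ↥C).map e.toMonoidHom = generalizedFittingSubgroup ↥(C.map f.toMonoidHom) :=
    Cfsg.Agent.Lib.Components.Transport.generalizedFittingSubgroup_map_equiv e
  ext y
  constructor
  · rintro ⟨_, ⟨c, hc, rfl⟩, rfl⟩
    exact ⟨e c, h1 ▸ ⟨c, hc, rfl⟩, rfl⟩
  · rintro ⟨y', hy', rfl⟩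
    rw [← h1] at hy'
    obtain ⟨c, hc, rfl⟩ := hy'
    exact ⟨c.1, ⟨c, hc, rfl⟩, rfl⟩

end

/-- **The main statement.** -/
theorem main {G : Type*} [Group G] [Finite G] {D : Set G} (hD : IsThreeTranspositionGroup D)
    (hprim : IsPrimitiveUnderConj D) (ht : IsOfTypeM22 G D) (d₁ d₂ : G) (h₁ : d₁ ∈ D) (h₂ : d₂ ∈ D) (hne : d₁ ≠ d₂)
    (hc : Commute d₁ d₂) :
    ConclQ (Subgroup.centralizer ({MulAut.conj (d₁ * d₂)} : Set (MulAut G)))
      ((generalizedFittingSubgroup ↥(Subgroup.centralizer ({MulAut.conj (d₁ * d₂)} : Set (MulAut G)))).map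
        (Subgroup.centralizer ({MulAut.conj (d₁ * d₂)} : Set (MulAut G))).subtype) := by
  obtain ⟨e, he⟩ := Explicit.exists_iso hD hprim ht
  obtain ⟨g, hg1, hg2⟩ := Explicit.pair_nf ((he _).1 h₁) ((he _).1 h₂) (hc.map e) (fun k => hne (e.injective k))
  let f : G ≃* Explicit.G0 := e.trans (MulAut.conj g)
  have f1 : f d₁ = Explicit.a0 := hg1
  have f2 : f d₂ = Explicit.tn 6 := hg2
  let κ : MulAut G ≃* MulAut G0 := MulAut.congr f
  have hκ : κ (MulAut.conj (d₁ * d₂)) = J := by
    have h1 : κ (MulAut.conj (d₁ * d₂)) = MulAut.conj (f (d₁ * d₂)) := by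
      ext h
      show f ((d₁ * d₂) * f.symm h * (d₁ * d₂)⁻¹) = f (d₁ * d₂) * h * (f (d₁ * d₂))⁻¹
      simp
    rw [h1, map_mul, f1, f2, tn_6']
    rfl
  have hC : (Subgroup.centralizer ({MulAut.conj (d₁ * d₂)} : Set (MulAut G))).map κ.toMonoidHom = CA := by
    rw [Pair.map_centralizer, Set.image_singleton, hκ]
    rfl
  apply conclQ_map κ
  rw [hC, fstar_map κ _ _ hC, fstar_map_eq]
  exact conclQ0

end Cfsg.Agent.Lib.Fischer.M22.AutPair
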